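import Cfsg.Agent.Lib.Helper98.A8.Pkgs
import Cfsg.Agent.S0144

/-!
# S2553 package [BURN] (helper89)
-/

set_option autoImplicit false

namespace Cfsg.Agent.Lib.Helper89.A8

theorem pkgBurn : Cfsg.Agent.Lib.Helper98.A8.PkgBurn := by
  intro H h5 h7
  have hdvd : Nat.card H ∣ Nat.card (Equiv.Perm (Fin 8)) := Subgroup.card_subgroup_dvd_card H
  have hcard : Nat.card (Equiv.Perm (Fin 8)) = 2 ^ 7 * 3 ^ 2 * 7 * 5 := by
    rw [Nat.card_eq_fintype_card, Fintype.card_perm, Fintype.card_fin]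
    decide
  rw [hcard] at hdvd
  have hc5 : Nat.Coprime (Nat.card H) 5 :=
    (Nat.coprime_comm.1 ((Nat.Prime.coprime_iff_not_dvd (by norm_num)).2 h5))
  have hc7 : Nat.Coprime (Nat.card H) 7 :=
    (Nat.coprime_comm.1 ((Nat.Prime.coprime_iff_not_dvd (by norm_num)).2 h7))
  have hd1 : Nat.card H ∣ 2 ^ 7 * 3 ^ 2 * 7 := hc5.dvd_of_dvd_mul_right hdvd
  have hd2 : Nat.card H ∣ 2 ^ 7 * 3 ^ 2 := hc7.dvd_of_dvd_mul_right hd1
  obtain ⟨k1, k2, hk1, hk2, hk⟩ := (Nat.dvd_mul).1 hd2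
  obtain ⟨a, -, rfl⟩ := (Nat.dvd_prime_pow Nat.prime_two).1 hk1
  obtain ⟨b, -, rfl⟩ := (Nat.dvd_prime_pow Nat.prime_three).1 hk2
  exact Cfsg.Agent.S0144.result 2 3 a b Nat.prime_two Nat.prime_three hk.symm

end Cfsg.Agent.Lib.Helper89.A8
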